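import Cfsg.Agent.H447.CTabLam
import Cfsg.Agent.H996.Eight.Interval

/-!
# The Schur functor `S_(2,2)` (helper741, [PI] of (M,23), S4929)

`isCharacter_s22` : `g ↦ (χ(g)⁴ + 3 χ(g²)² - 4 χ(g) χ(g³)) / 12` is a character for every character `χ`.
-/

set_option autoImplicit false

namespace Cfsg.Agent.H741.M23

open Cfsg Cfsg.Agent.Characters.Core Cfsg.Agent.Characters.Brauer Cfsg.Agent.H139.Cusp Cfsg.Agent.H447.CTab
open MulAction Equiv

/-- the double transpositions -/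
def Dt : Type := {v : Perm (Fin 4) // v * v = 1 ∧ ∀ i, v i ≠ i}

instance : DecidableEq Dt := inferInstanceAs (DecidableEq {v : Perm (Fin 4) // v * v = 1 ∧ ∀ i, v i ≠ i})
instance : Fintype Dt := inferInstanceAs (Fintype {v : Perm (Fin 4) // v * v = 1 ∧ ∀ i, v i ≠ i})

instance : MulAction (Perm (Fin 4)) Dt where
  smul σ v := ⟨σ * v.1 * σ⁻¹, by
    refine ⟨?_, fun i h => ?_⟩
    · have := v.2.1
      calc σ * v.1 * σ⁻¹ * (σ * v.1 * σ⁻¹) = σ * (v.1 * v.1) * σ⁻¹ := by group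
        _ = 1 := by rw [this]; group
    · have h1 := v.2.2 (σ⁻¹ i)
      apply h1
      rw [Perm.mul_apply, Perm.mul_apply] at h
      rw [Perm.eq_inv_iff_eq]
      exact h⟩
  one_smul v := Subtype.ext (show 1 * v.1 * 1⁻¹ = v.1 by group)
  mul_smul a b v := Subtype.ext (show a * b * v.1 * (a * b)⁻¹ = a * (b * v.1 * b⁻¹) * a⁻¹ by group)

/-- the values of the character of degree two of the symmetric group on four letters -/
def kk (σ : Perm (Fin 4)) : ℤ := ((Finset.univ.filter fun v : Dt => σ * v.1 * σ⁻¹ = v.1).card : ℤ) - 1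

theorem card_fixedBy (σ : Perm (Fin 4)) : (Nat.card (fixedBy Dt σ) : ℂ) - 1 = (kk σ : ℂ) := by
  have h1 : Nat.card (fixedBy Dt σ) = (Finset.univ.filter fun v : Dt => σ * v.1 * σ⁻¹ = v.1).card := by
    rw [Nat.card_eq_fintype_card, Fintype.card_subtype]
    congr 1
    ext v
    simp only [Finset.mem_filter, Finset.mem_univ, true_and]
    exact ⟨fun h => congrArg Subtype.val h, fun h => Subtype.ext h⟩
  rw [h1, kk]
  push_cast
  rfl

/-- representatives -/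
def c2 : Perm (Fin 4) := swap 0 1 * swap 2 3
def c3 : Perm (Fin 4) := swap 0 1 * swap 1 2

theorem cases_perm : ∀ σ : Perm (Fin 4), kk σ = 0 ∨ (kk σ = 2 ∧ σ = 1) ∨ (kk σ = 2 ∧ ∃ τ, σ = τ * c2 * τ⁻¹) ∨
    (kk σ = -1 ∧ ∃ τ, σ = τ * c3 * τ⁻¹) := by
  decide +kernel

theorem sum_four {ι : Type*} [Fintype ι] (f : (Fin 4 → ι) → ℂ) :
    ∑ y, f y = ∑ a, ∑ b, ∑ c, ∑ d, f ![a, b, c, d] := by
  have h1 : ∑ y, f y = ∑ p : ι × ι × ι × ι, f ![p.1, p.2.1, p.2.2.1, p.2.2.2] := by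
    refine Fintype.sum_equiv (⟨fun y => (y 0, y 1, y 2, y 3), fun p => ![p.1, p.2.1, p.2.2.1, p.2.2.2],
      fun y => ?_, fun p => rfl⟩ : (Fin 4 → ι) ≃ ι × ι × ι × ι) _ _ fun y => ?_
    · funext i
      fin_cases i <;> rfl
    · congr 1
      funext i
      fin_cases i <;> rfl
  rw [h1, Fintype.sum_prod_type]
  refine Finset.sum_congr rfl fun a _ => ?_
  rw [Fintype.sum_prod_type]
  refine Finset.sum_congr rfl fun b _ => ?_
  rw [Fintype.sum_prod_type]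

section eval

variable {n : ℕ} (A : Matrix (Fin n) (Fin n) ℂ)

/-- the trace of `A ⊗ A ⊗ A ⊗ A` followed by a permutation -/
def ev (σ : Perm (Fin 4)) : ℂ := ∑ y : Fin 4 → Fin n, ∏ i, A (y (σ i)) (y i)

theorem ev_conj (σ τ : Perm (Fin 4)) : ev A (τ * σ * τ⁻¹) = ev A σ := by
  unfold ev
  refine Fintype.sum_equiv (Equiv.arrowCongr τ.symm (Equiv.refl (Fin n))) _ _ fun y => ?_
  refine Fintype.prod_equiv τ⁻¹ _ _ fun i => ?_
  simp [Equiv.arrowCongr]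

theorem ev_one : ev A 1 = A.trace ^ 4 := by
  unfold ev
  rw [sum_four, Matrix.trace]
  simp only [Fin.prod_univ_four, Perm.one_apply, Matrix.cons_val_zero, Matrix.cons_val_one, Matrix.cons_val_two,
    Matrix.cons_val_three, Matrix.tail_cons, Matrix.head_cons, Matrix.diag_apply]
  simp only [← Finset.mul_sum, ← Finset.sum_mul]
  ring

theorem ev_c2 : ev A c2 = (A ^ 2).trace ^ 2 := by
  unfold ev
  have e0 : c2 0 = 1 := by decide
  have e1 : c2 1 = 0 := by decide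
  have e2 : c2 2 = 3 := by decide
  have e3 : c2 3 = 2 := by decide
  rw [sum_four, trace_two, pow_two]
  simp only [Fin.prod_univ_four, e0, e1, e2, e3, Matrix.cons_val_zero, Matrix.cons_val_one, Matrix.cons_val_two,
    Matrix.cons_val_three, Matrix.tail_cons, Matrix.head_cons]
  rw [Finset.sum_mul]
  refine Finset.sum_congr rfl fun a _ => ?_
  rw [Finset.sum_mul]
  refine Finset.sum_congr rfl fun b _ => ?_
  rw [Finset.mul_sum]
  refine Finset.sum_congr rfl fun c _ => ?_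
  rw [Finset.mul_sum]
  refine Finset.sum_congr rfl fun d _ => ?_
  ring

theorem ev_c3 : ev A c3 = (A ^ 3).trace * A.trace := by
  unfold ev
  have e0 : c3 0 = 1 := by decide
  have e1 : c3 1 = 2 := by decide
  have e2 : c3 2 = 0 := by decide
  have e3 : c3 3 = 3 := by decide
  rw [sum_four, trace_three, Matrix.trace]
  simp only [Fin.prod_univ_four, e0, e1, e2, e3, Matrix.cons_val_zero, Matrix.cons_val_one, Matrix.cons_val_two,
    Matrix.cons_val_three, Matrix.tail_cons, Matrix.head_cons, Matrix.diag_apply]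
  have e : ∑ a, ∑ b, ∑ c, A a b * A b c * A c a = ∑ a, ∑ b, ∑ c, A b a * A c b * A a c := by
    refine Finset.sum_congr rfl fun a _ => ?_
    rw [Finset.sum_comm]
    refine Finset.sum_congr rfl fun b _ => Finset.sum_congr rfl fun c _ => ?_
    ring
  rw [e, Finset.sum_mul]
  refine Finset.sum_congr rfl fun a _ => ?_
  rw [Finset.sum_mul]
  refine Finset.sum_congr rfl fun b _ => ?_
  rw [Finset.sum_mul]
  refine Finset.sum_congr rfl fun c _ => ?_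
  rw [Finset.mul_sum]

end eval

/-- the coefficients -/
def w1 (σ : Perm (Fin 4)) : ℤ := if σ = 1 then 2 else 0
def w2 (σ : Perm (Fin 4)) : ℤ := if ∃ τ, σ = τ * c2 * τ⁻¹ then 2 else 0
def w3 (σ : Perm (Fin 4)) : ℤ := if ∃ τ, σ = τ * c3 * τ⁻¹ then -1 else 0

theorem w_cases : ∀ σ : Perm (Fin 4), (kk σ = 0 ∧ w1 σ = 0 ∧ w2 σ = 0 ∧ w3 σ = 0) ∨
    ((kk σ = 2 ∧ w1 σ = 2 ∧ w2 σ = 0 ∧ w3 σ = 0) ∧ σ = 1) ∨
    ((kk σ = 2 ∧ w1 σ = 0 ∧ w2 σ = 2 ∧ w3 σ = 0) ∧ ∃ τ, σ = τ * c2 * τ⁻¹) ∨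
    ((kk σ = -1 ∧ w1 σ = 0 ∧ w2 σ = 0 ∧ w3 σ = -1) ∧ ∃ τ, σ = τ * c3 * τ⁻¹) := by
  decide +kernel

theorem w_sums : ∑ σ, w1 σ = 2 ∧ ∑ σ, w2 σ = 6 ∧ ∑ σ, w3 σ = -8 := by
  decide +kernel

theorem sum_ev {n : ℕ} (A : Matrix (Fin n) (Fin n) ℂ) :
    ∑ σ, ev A σ * (kk σ : ℂ) = 2 * A.trace ^ 4 + 6 * (A ^ 2).trace ^ 2 - 8 * ((A ^ 3).trace * A.trace) := by
  have h : ∀ σ : Perm (Fin 4), ev A σ * (kk σ : ℂ) =
      (w1 σ : ℂ) * A.trace ^ 4 + (w2 σ : ℂ) * (A ^ 2).trace ^ 2 + (w3 σ : ℂ) * ((A ^ 3).trace * A.trace) := by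
    intro σ
    rcases w_cases σ with ⟨h0, h1, h2, h3⟩ | ⟨⟨h0, h1, h2, h3⟩, hs⟩ | ⟨⟨h0, h1, h2, h3⟩, τ, hs⟩ | ⟨⟨h0, h1, h2, h3⟩, τ, hs⟩
    · rw [h0, h1, h2, h3]; push_cast; ring
    · rw [h0, h1, h2, h3, hs, ev_one]; push_cast; ring
    · rw [h0, h1, h2, h3, hs, ev_conj, ev_c2]; push_cast; ring
    · rw [h0, h1, h2, h3, hs, ev_conj, ev_c3]; push_cast; ring
  obtain ⟨s1, s2, s3⟩ := w_sums
  have s1' : ∑ σ, (w1 σ : ℂ) = 2 := by exact_mod_cast congrArg (Int.cast : ℤ → ℂ) s1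
  have s2' : ∑ σ, (w2 σ : ℂ) = 6 := by exact_mod_cast congrArg (Int.cast : ℤ → ℂ) s2
  have s3' : ∑ σ, (w3 σ : ℂ) = -8 := by exact_mod_cast congrArg (Int.cast : ℤ → ℂ) s3
  rw [Finset.sum_congr rfl fun σ _ => h σ, Finset.sum_add_distrib, Finset.sum_add_distrib, ← Finset.sum_mul,
    ← Finset.sum_mul, ← Finset.sum_mul, s1', s2', s3']
  ring

/-- **the Schur functor `S_(2,2)`** -/
theorem isCharacter_s22 {G : Type*} [Group G] [Finite G] {χ : G → ℂ} (hχ : IsCharacter G χ) :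
    IsCharacter G (fun g => (χ g ^ 4 + 3 * χ (g ^ 2) ^ 2 - 4 * χ g * χ (g ^ 3)) / 12) := by
  obtain ⟨n, M, hM, hΨ⟩ := exists_tensor hχ 4
  have : Nonempty Dt := ⟨⟨c2, by decide +kernel⟩⟩
  have h1 := slice_isCharacter hΨ (Cfsg.Agent.H996.Eight.Interval.isCharacter_pc_sub_one (G := Perm (Fin 4)) (X := Dt))
  refine (?_ : (fun g => _) = (fun g => _)) ▸ h1
  funext g
  have h2 := sum_ev (M g)
  rw [Nat.card_eq_fintype_card, Fintype.card_perm, Fintype.card_fin, ← hM g, ← hM (g ^ 2), ← hM (g ^ 3), map_pow,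
    map_pow]
  have h3 : ∀ σ : Perm (Fin 4), (∑ y : Fin 4 → Fin n, ∏ i, M g (y (σ i)) (y i)) *
      (starRingEnd ℂ) ((Nat.card (fixedBy Dt σ) : ℂ) - 1) = ev (M g) σ * (kk σ : ℂ) := by
    intro σ
    rw [card_fixedBy, map_intCast]
    rfl
  rw [Finset.sum_congr rfl fun σ _ => h3 σ, h2]
  norm_num [Nat.factorial]
  ring

/-- the degree -/
theorem s22_one {G : Type*} [Group G] {χ : G → ℂ} (h : χ 1 = 196883) :
    (χ 1 ^ 4 + 3 * χ (1 ^ 2) ^ 2 - 4 * χ 1 * χ (1 ^ 3)) / 12 = 125213636056146619086 := by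
  rw [one_pow, one_pow, h]
  norm_num

end Cfsg.Agent.H741.M23
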